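import Cfsg.Agent.Lib.Helper7.PrimeIdx.Defs

set_option autoImplicit false

namespace Cfsg.Agent.Lib.Helper74.PrimeIdx
open Cfsg.Agent.Lib.Helper7.PrimeIdx

open scoped commutatorElement

theorem normAut_zpow {G : Type*} [Group G] [Finite G] (x : G) (δ : MulAut G)
    (hδ : δ ∈ normAut x) : ∃ i : ℤ, ∀ n : ℤ, δ (x ^ n) = x ^ (i * n) := by
  obtain ⟨i, hi⟩ := hδ
  refine ⟨i, fun n => ?_⟩
  have hi' : x ^ i = δ x := hi
  rw [map_zpow, ← hi', zpow_mul]

theorem normAut_solvable {G : Type*} [Group G] [Finite G] (x : G)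
    (hcomm : ∀ α β : MulAut G, α x = x → β x = x → α * β = β * α) :
    Group.IsSolvable (normAut x) := by
  let C : Subgroup (normAut x) :=
    { carrier := {α | (α : MulAut G) x = x}
      one_mem' := by simp
      mul_mem' := by
        intro α β hα hβ
        have hα' : (α : MulAut G) x = x := hα
        have hβ' : (β : MulAut G) x = x := hβ
        change ((α * β : normAut x) : MulAut G) x = x
        rw [Subgroup.coe_mul, MulAut.mul_apply, hβ', hα']
      inv_mem' := by
        intro α hα
        have hα' : (α : MulAut G) x = x := hα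
        change ((α⁻¹ : normAut x) : MulAut G) x = x
        rw [Subgroup.coe_inv]
        have h := congrArg (fun y => ((α : MulAut G)⁻¹ : MulAut G) y) hα'
        simp only [MulAut.inv_apply_self] at h
        exact h.symm }
  have hCs : Group.IsSolvable C := by
    apply Group.isSolvable_of_comm
    intro a b
    apply Subtype.ext
    apply Subtype.ext
    exact hcomm _ _ a.2 b.2
  refine Group.isSolvable_of_ker_le_range C.subtype (Abelianization.of : normAut x →* _) ?_
  rw [Abelianization.ker_of, Subgroup.range_subtype, commutator_def, Subgroup.commutator_le]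
  intro α _ β _
  change ((⁅α, β⁆ : normAut x) : MulAut G) x = x
  obtain ⟨a, ha⟩ := normAut_zpow x α α.2
  obtain ⟨b, hb⟩ := normAut_zpow x β β.2
  obtain ⟨a', ha'⟩ := normAut_zpow x (α⁻¹ : normAut x) (α⁻¹ : normAut x).2
  obtain ⟨b', hb'⟩ := normAut_zpow x (β⁻¹ : normAut x) (β⁻¹ : normAut x).2
  have h1 : x ^ (a' * a) = x := by
    have := ha' (a * 1)
    rw [← ha 1] at this
    simpa using this.symm
  have h2 : x ^ (b' * b) = x := by
    have := hb' (b * 1)
    rw [← hb 1] at this
    simpa using this.symm
  have h3 : ((⁅α, β⁆ : normAut x) : MulAut G) x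
      = (α : MulAut G) ((β : MulAut G) (((α⁻¹ : normAut x) : MulAut G)
          (((β⁻¹ : normAut x) : MulAut G) (x ^ (1 : ℤ))))) := by
    rw [commutatorElement_def]
    simp
  rw [h3, hb', ha', hb, ha]
  have : a * (b * (a' * (b' * 1))) = (a' * a) * (b' * b) := by ring
  rw [this, zpow_mul, h1, h2]

end Cfsg.Agent.Lib.Helper74.PrimeIdx
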