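import Cfsg.Agent.Lib.Helper7.PrimeIdx.Defs

set_option autoImplicit false

namespace Cfsg.Agent.Lib.Helper74.PrimeIdx
open Cfsg.Agent.Lib.Helper7.PrimeIdx

theorem setup {G : Type*} [Group G] [Finite G] [IsSimpleGroup G] (H : Subgroup G) (p : ℕ)
    [Fact p.Prime] (hH : H.index = p) :
    ∃ (σ : G →* Equiv.Perm (ZMod p)) (x : G), Function.Injective σ ∧ (∀ i, σ x i = i + 1) ∧
      ¬ p ^ 2 ∣ Nat.card G := by
  classical
  have hp : p.Prime := Fact.out
  -- faithful action
  have hinj : Function.Injective (MulAction.toPermHom G (G ⧸ H)) := by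
    rw [← MonoidHom.ker_eq_bot_iff, ← Subgroup.normalCore_eq_ker]
    rcases (Subgroup.normalCore_normal H).eq_bot_or_eq_top with h | h
    · exact h
    · exfalso
      have : H = ⊤ := top_le_iff.mp (h ▸ Subgroup.normalCore_le H)
      rw [this, Subgroup.index_top] at hH
      exact hp.one_lt.ne hH
  have hcardQ : Nat.card (G ⧸ H) = p := hH
  have hdvd : Nat.card G ∣ p.factorial := by
    have := Subgroup.card_dvd_of_injective _ hinj
    rwa [Nat.card_perm, hcardQ] at this
  have hp2 : ¬ p ^ 2 ∣ Nat.card G := by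
    intro h
    have h1 : p ^ 2 ∣ p.factorial := h.trans hdvd
    obtain ⟨n, rfl⟩ : ∃ n, p = n + 1 := ⟨p - 1, by have := hp.pos; omega⟩
    rw [Nat.factorial_succ, pow_two] at h1
    have h2 : (n + 1) ∣ n.factorial := Nat.dvd_of_mul_dvd_mul_left (Nat.succ_pos n) h1
    have := (hp.dvd_factorial).1 h2
    omega
  obtain ⟨x, hx⟩ := exists_prime_orderOf_dvd_card' p (hH ▸ Subgroup.index_dvd_card H)
  have hx1 : x ≠ 1 := by
    rintro rfl
    rw [orderOf_one] at hx
    exact hp.one_lt.ne hx
  obtain ⟨q0, hq0⟩ : ∃ q0 : G ⧸ H, x • q0 ≠ q0 := by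
    by_contra hcon
    push Not at hcon
    apply hx1
    apply hinj
    ext q
    simpa using hcon q
  have hfixpow : ∀ (y : G), y • q0 = q0 → ∀ m : ℕ, y ^ m • q0 = q0 := by
    intro y hy m
    induction m with
    | zero => simp
    | succ m ih => rw [pow_succ, mul_smul, hy, ih]
  have hle : ∀ a b : ℕ, a ≤ b → b < p → x ^ a • q0 = x ^ b • q0 → a = b := by
    intro a b hab hb h
    by_contra hne
    have hd : x ^ (b - a) • q0 = q0 := by
      have : x ^ b = x ^ a * x ^ (b - a) := by rw [← pow_add]; congr 1; omega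
      rw [this, mul_smul] at h
      exact (smul_left_cancel _ h).symm
    have hcop : Nat.Coprime (b - a) (orderOf x) := by
      rw [hx, Nat.coprime_comm, hp.coprime_iff_not_dvd]
      intro hdv
      have := Nat.le_of_dvd (by omega) hdv
      omega
    obtain ⟨m, hm⟩ := exists_pow_eq_self_of_coprime hcop
    apply hq0
    have := hfixpow _ hd m
    rwa [hm] at this
  have hfinj : Function.Injective (fun i : ZMod p => x ^ i.val • q0) := by
    intro a b h
    apply ZMod.val_injective p
    rcases le_total a.val b.val with hab | hab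
    · exact hle _ _ hab (ZMod.val_lt b) h
    · exact (hle _ _ hab (ZMod.val_lt a) h.symm).symm
  have hfbij : Function.Bijective (fun i : ZMod p => x ^ i.val • q0) := by
    have : Finite (G ⧸ H) := inferInstance
    rw [Nat.bijective_iff_injective_and_card]
    exact ⟨hfinj, by rw [hcardQ, Nat.card_zmod]⟩
  let e : ZMod p ≃ G ⧸ H := Equiv.ofBijective _ hfbij
  have he : ∀ i, e i = x ^ i.val • q0 := fun i => rfl
  refine ⟨(e.symm.permCongrHom).toMonoidHom.comp (MulAction.toPermHom G (G ⧸ H)), x, ?_, ?_, hp2⟩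
  · exact (e.symm.permCongrHom).injective.comp hinj
  · intro i
    have h1 : ((e.symm.permCongrHom).toMonoidHom.comp (MulAction.toPermHom G (G ⧸ H))) x i
        = e.symm (x • e i) := by
      simp [Equiv.permCongrHom, Equiv.permCongr_apply]
    rw [h1, Equiv.symm_apply_eq, he, he, ← mul_smul, ← pow_succ']
    congr 1
    rw [pow_eq_pow_iff_modEq, hx, ← ZMod.natCast_eq_natCast_iff]
    simp

end Cfsg.Agent.Lib.Helper74.PrimeIdx
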