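import Cfsg.Agent.Lib.Helper7.PrimeIdx.Defs

set_option autoImplicit false

namespace Cfsg.Agent.Lib.Helper74.PrimeIdx
open Cfsg.Agent.Lib.Helper7.PrimeIdx
open scoped Pointwise

theorem orderOf_of_shift {p : ℕ} [Fact p.Prime] {G : Type*} [Group G]
    (σ : G →* Equiv.Perm (ZMod p)) (hσ : Function.Injective σ) (x : G)
    (hx : ∀ i, σ x i = i + 1) : orderOf x = p := by
  apply orderOf_eq_prime
  · apply hσ
    ext i
    rw [shift_pow σ x hx]
    simp
  · rintro rfl
    have := hx 0
    simp at this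

theorem frattini {G : Type*} [Group G] [Finite G] (p : ℕ) [Fact p.Prime] (x : G)
    (hx : orderOf x = p) (hp2 : ¬ p ^ 2 ∣ Nat.card G) (α : MulAut G) :
    ∃ g : G, (α * MulAut.conj g) x ∈ Subgroup.zpowers x := by
  have hp : p.Prime := Fact.out
  have hG0 : Nat.card G ≠ 0 := Nat.card_pos.ne'
  have hf : (Nat.card G).factorization p = 1 := by
    have h1 : 1 ≤ (Nat.card G).factorization p := by
      rw [← hp.pow_dvd_iff_le_factorization hG0, pow_one, ← hx]
      exact orderOf_dvd_natCard x
    have h2 : ¬ 2 ≤ (Nat.card G).factorization p := by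
      rw [← hp.pow_dvd_iff_le_factorization hG0]
      exact hp2
    omega
  have hc : Nat.card (Subgroup.zpowers x) = p ^ (Nat.card G).factorization p := by
    rw [hf, pow_one, Nat.card_zpowers, hx]
  have hc' : Nat.card ((Subgroup.zpowers x).map (α⁻¹ : MulAut G).toMonoidHom)
      = p ^ (Nat.card G).factorization p := by
    rw [Subgroup.card_map_of_injective (α⁻¹ : MulAut G).injective, hc]
  obtain ⟨g, hg⟩ := MulAction.exists_smul_eq G (Sylow.ofCard _ hc) (Sylow.ofCard _ hc')
  refine ⟨g, ?_⟩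
  have h1 : MulAut.conj g • x ∈ MulAut.conj g • (Subgroup.zpowers x) :=
    Subgroup.smul_mem_pointwise_smul _ _ _ (Subgroup.mem_zpowers x)
  have h2 : MulAut.conj g • (Subgroup.zpowers x)
      = (Subgroup.zpowers x).map (α⁻¹ : MulAut G).toMonoidHom := by
    have := congrArg (fun P : Sylow p G => (P : Subgroup G)) hg
    exact this
  rw [h2] at h1
  obtain ⟨y, hy, hyx⟩ := h1
  have h3 : (α * MulAut.conj g) x = y := by
    rw [MulAut.mul_apply]
    have : MulAut.conj g x = (α⁻¹ : MulAut G) y := hyx.symm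
    rw [this, MulAut.apply_inv_self]
  rw [h3]; exact hy

end Cfsg.Agent.Lib.Helper74.PrimeIdx
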